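import Cfsg.Agent.H4.Small

/-!
# No element of order 9 acts on a group of order at most 32 (helper4)
-/

set_option autoImplicit false

namespace Cfsg.Agent.H4.TwD4

open Subgroup Cfsg Cfsg.Agent.H4.Small

universe u v

theorem card_dvd_free {A Y : Type*} [Group A] [MulAction A Y]
    (h : ∀ (a : A) (y : Y), a • y = y → a = 1) : Nat.card A ∣ Nat.card Y := by
  have hst : ∀ y : Y, MulAction.stabilizer A y = ⊥ := by
    intro y
    rw [eq_bot_iff]
    intro a ha
    exact h a y ha
  rw [Nat.card_congr (MulAction.selfEquivOrbitsQuotientProd hst), Nat.card_prod]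
  exact dvd_mul_left _ _

/-- the fixed points of `y³` -/
def fixThree {U : Type*} [Group U] (y : MulAut U) : Subgroup U where
  carrier := {u | (y ^ 3) u = u}
  one_mem' := map_one _
  mul_mem' {a b} ha hb := by
    show (y ^ 3) (a * b) = a * b
    rw [map_mul, ha, hb]
  inv_mem' {a} ha := by
    show (y ^ 3) a⁻¹ = a⁻¹
    rw [map_inv, ha]

/-- **a group of order at most 32 has no automorphism of order 9** -/
theorem cube_eq_one {U : Type*} [Group U] [Finite U] {n : ℕ} (hn : Nat.card U = 2 ^ n) (h5 : n ≤ 5) {y : MulAut U}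
    (h9 : y ^ 9 = 1) : y ^ 3 = 1 := by
  by_contra h3
  have ho : orderOf y = 3 ^ 2 := orderOf_eq_prime_pow (p := 3) (n := 1) (by rwa [pow_one]) (by simpa using h9)
  have hne : fixThree y ≠ ⊤ := by
    intro h
    apply h3
    ext u
    have h1 : u ∈ fixThree y := by rw [h]; exact mem_top _
    exact h1
  -- the action of `⟨y⟩` on the complement of the fixed points
  have hst : ∀ (a : zpowers y) (u : U), u ∉ fixThree y → (a : MulAut U) u ∉ fixThree y := by
    rintro ⟨a, k, rfl⟩ u hu hau
    apply hu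
    have h1 : (y ^ 3) ((y ^ k) u) = (y ^ k) u := hau
    have h2 : (y ^ k) ((y ^ 3) u) = (y ^ k) u := by
      rw [← h1, ← MulAut.mul_apply, ← MulAut.mul_apply, ← zpow_natCast y 3, ← zpow_add, ← zpow_add, add_comm]
    exact (y ^ k).injective h2
  let act : MulAction (zpowers y) {u : U // u ∉ fixThree y} :=
    { smul := fun a u => ⟨(a : MulAut U) u.1, hst a u.1 u.2⟩
      one_smul := fun u => rfl
      mul_smul := fun a b u => rfl }
  have hfree : ∀ (a : zpowers y) (u : {u : U // u ∉ fixThree y}), a • u = u → a = 1 := by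
    intro a u hau
    by_contra ha
    apply u.2
    have h1 : (a : MulAut U) u.1 = u.1 := congrArg Subtype.val hau
    have h2 : ∀ m : ℕ, ((a : MulAut U) ^ m) u.1 = u.1 := by
      intro m
      induction m with
      | zero => rfl
      | succ m ih => rw [pow_succ, MulAut.mul_apply, h1, ih]
    obtain ⟨k, hk⟩ : ∃ k : ℕ, y ^ k = (a : MulAut U) := (mem_powers_iff_mem_zpowers.2 a.2)
    have h3 : orderOf (a : MulAut U) ∣ 3 ^ 2 := by
      rw [← hk, ← ho]; exact orderOf_pow_dvd k
    have h4 : ∃ m : ℕ, (a : MulAut U) ^ m = y ^ 3 := by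
      have h5 : ¬ 9 ∣ k := by
        rintro ⟨c, rfl⟩
        apply ha
        apply Subtype.ext
        rw [← hk, pow_mul, h9, one_pow]; rfl
      -- `gcd k 9 ∣ 3`
      have h6 : Nat.gcd k 9 ∣ 3 := by
        have h7 : Nat.gcd k 9 ∣ 3 ^ 2 := Nat.gcd_dvd_right k 9
        obtain ⟨i, hi, hgi⟩ := (Nat.dvd_prime_pow Nat.prime_three).1 h7
        interval_cases i
        · rw [hgi]; norm_num
        · rw [hgi]; norm_num
        · exfalso
          apply h5
          have h8 := Nat.gcd_dvd_left k 9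
          rwa [hgi] at h8
      have h7 : ∃ m : ℕ, k * m ≡ 3 [MOD 9] := by
        obtain ⟨c, hc⟩ := h6
        have h8 := Nat.gcd_eq_gcd_ab k 9
        have h10 : (3 : ℤ) = k * (k.gcdA 9 * c) + 9 * (k.gcdB 9 * c) := by
          have : (3 : ℤ) = (Nat.gcd k 9 : ℤ) * c := by exact_mod_cast hc
          rw [this, h8]; push_cast; ring
        refine ⟨((k.gcdA 9 * c) % 9).toNat, ?_⟩
        have h11 : (0 : ℤ) ≤ (k.gcdA 9 * c) % 9 := Int.emod_nonneg _ (by norm_num)
        apply (Int.natCast_modEq_iff).1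
        push_cast
        rw [Int.toNat_of_nonneg h11]
        have h12 : (k : ℤ) * (k.gcdA 9 * c) ≡ 3 [ZMOD 9] := by
          rw [Int.modEq_iff_dvd]
          exact ⟨k.gcdB 9 * c, by linear_combination h10⟩
        exact ((Int.ModEq.refl (k : ℤ)).mul (Int.mod_modEq _ _)).trans h12
      obtain ⟨m, hm⟩ := h7
      refine ⟨m, ?_⟩
      rw [← hk, ← pow_mul]
      have h8 : k * m ≡ 3 [MOD orderOf y] := by rw [ho]; exact hm
      exact pow_eq_pow_iff_modEq.2 h8
    obtain ⟨m, hm⟩ := h4
    show (y ^ 3) u.1 = u.1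
    rw [← hm]
    exact h2 m
  have h1 := card_dvd_free hfree
  rw [Nat.card_zpowers, ho] at h1
  have h2 : Nat.card {u : U // u ∉ fixThree y} = Nat.card U - Nat.card (fixThree y) := by
    have h3 : Nat.card (fixThree y) + Nat.card {u : U // u ∉ fixThree y} = Nat.card U := by
      classical
      rw [← Nat.card_sum]
      exact Nat.card_congr (Equiv.sumCompl (fun u => u ∈ fixThree y))
    omega
  have h3 := (fixThree y).card_subgroup_dvd_card
  rw [hn] at h3
  obtain ⟨m, hm, hm'⟩ := (Nat.dvd_prime_pow Nat.prime_two).1 h3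
  have h4 : m < n := by
    rcases hm.lt_or_eq with h | h
    · exact h
    · exfalso
      apply hne
      rw [← Subgroup.card_eq_iff_eq_top, hm', hn, h]
  rw [h2, hn, hm'] at h1
  interval_cases n <;> interval_cases m <;> revert h1 <;> decide

section main

variable {G : Type u} [Group G]

theorem false_of_nine [Finite G] {L U : Subgroup G} (h : Acts L U) (h32 : Nat.card ↥U ≤ 32) {Q : Type v} [Group Q]
    [IsSimpleGroup Q] (e : (↥L ⧸ pCore 2 ↥L) ≃* Q) {x : Q} (h9 : x ^ 9 = 1) (h3 : x ^ 3 ≠ 1) : False := by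
  have h2f : Fact (Nat.Prime 2) := ⟨Nat.prime_two⟩
  obtain ⟨n, hn⟩ := h.exists_card
  have h5 : n ≤ 5 := by
    by_contra hlt
    have h1 : 2 ^ 6 ≤ 2 ^ n := Nat.pow_le_pow_right (by norm_num) (by omega)
    rw [hn] at h32
    omega
  let π : ↥L →* Q := e.toMonoidHom.comp (QuotientGroup.mk' (pCore 2 ↥L))
  have hπ : Function.Surjective π := e.surjective.comp (QuotientGroup.mk'_surjective _)
  have hker : ∀ l, π l = 1 ↔ l ∈ pCore 2 ↥L := by
    intro l
    have h1 : π l = 1 ↔ QuotientGroup.mk' (pCore 2 ↥L) l = 1 := by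
      show e (QuotientGroup.mk' (pCore 2 ↥L) l) = 1 ↔ _
      exact e.map_eq_one_iff
    rw [h1, ← MonoidHom.mem_ker, QuotientGroup.ker_mk']
  have hN : ((act h.norm).ker.map π).Normal := Subgroup.Normal.map inferInstance π hπ
  rcases hN.eq_bot_or_eq_top with hb | ht
  · obtain ⟨l, hl⟩ := hπ x
    have h6 : ∀ k : ℕ, (act h.norm l) ^ k = 1 → x ^ k = 1 := by
      intro k hk
      have h7 : l ^ k ∈ (act h.norm).ker := by rw [MonoidHom.mem_ker, map_pow, hk]
      have h8 : π (l ^ k) ∈ ((act h.norm).ker.map π) := Subgroup.mem_map_of_mem π h7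
      rw [hb, Subgroup.mem_bot, map_pow, hl] at h8
      exact h8
    have ho : orderOf x = 3 ^ 2 := orderOf_eq_prime_pow (p := 3) (n := 1) (by rwa [pow_one]) (by simpa using h9)
    have h7 : 3 ^ 2 ∣ orderOf (act h.norm l) := by
      rw [← ho, orderOf_dvd_iff_pow_eq_one]
      exact h6 _ (pow_orderOf_eq_one _)
    obtain ⟨c, hc⟩ := h7
    have h10 : ((act h.norm l) ^ c) ^ 9 = 1 := by
      rw [← pow_mul, mul_comm, show 9 = 3 ^ 2 from rfl, ← hc, pow_orderOf_eq_one]
    have h11 := cube_eq_one hn h5 h10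
    rw [← pow_mul] at h11
    have h12 := orderOf_dvd_of_pow_eq_one h11
    rw [hc] at h12
    have hc0 : 0 < c := by
      rcases Nat.eq_zero_or_pos c with h0 | h0
      · rw [h0, mul_zero] at hc
        exact absurd hc (orderOf_pos _).ne'
      · exact h0
    have h13 := Nat.le_of_dvd (by positivity) h12
    omega
  · -- the action factors through `O₂(L)`
    apply h.not_solvable
    have h6 : (act h.norm).range = ((act h.norm).comp (pCore 2 ↥L).subtype).range := by
      apply le_antisymm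
      · rintro _ ⟨l, rfl⟩
        have h7 : π l ∈ ((act h.norm).ker.map π) := by rw [ht]; exact mem_top _
        obtain ⟨k, hk, hkl⟩ := h7
        have h8 : k⁻¹ * l ∈ pCore 2 ↥L := by
          rw [← hker, map_mul, map_inv, hkl, inv_mul_cancel]
        refine ⟨⟨k⁻¹ * l, h8⟩, ?_⟩
        show act h.norm (k⁻¹ * l) = act h.norm l
        rw [map_mul, map_inv, MonoidHom.mem_ker.1 hk, inv_one, one_mul]
      · rintro _ ⟨l, rfl⟩
        exact ⟨l.1, rfl⟩
    rw [h6]
    have h7 : IsPGroup 2 ↥(pCore 2 ↥L) := Cfsg.Agent.Lib.Cores.pCore_isPGroup (G := ↥L) 2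
    have h8 : Group.IsSolvable ↥(pCore 2 ↥L) := by
      have := h7.isNilpotent
      infer_instance
    exact Group.isSolvable_of_surjective (f := ((act h.norm).comp (pCore 2 ↥L).subtype).rangeRestrict)
      (MonoidHom.rangeRestrict_surjective _)

end main

section sl

variable {K : Type v} [Field K] [Fintype K]

/-- the matrix `(0, 1; 1, t)` -/
theorem exists_nine (hK : Fintype.card K = 8) :
    ∃ x : Matrix.SpecialLinearGroup (Fin 2) K, x ^ 9 = 1 ∧ x ^ 3 ≠ 1 := by
  have h2 : (2 : K) = 0 := by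
    have h1 : ((Fintype.card K : ℕ) : K) = 0 := Nat.cast_card_eq_zero K
    rw [hK] at h1
    have h3 : (2 : K) ^ 3 = 0 := by exact_mod_cast h1
    exact (pow_eq_zero_iff (by norm_num)).1 h3
  have hexists : ∃ t : K, t ^ 3 + t + 1 = 0 := by
    classical
    obtain ⟨a, ha⟩ : ∃ a : K, a ∉ ({0, 1} : Finset K) := by
      by_contra hcon
      push Not at hcon
      have h1 : (Finset.univ : Finset K) ⊆ {0, 1} := fun a _ => hcon a
      have h3 := Finset.card_le_card h1
      rw [Finset.card_univ, hK] at h3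
      have h4 : ({0, 1} : Finset K).card ≤ 2 := Finset.card_le_two
      omega
    simp only [Finset.mem_insert, Finset.mem_singleton, not_or] at ha
    have h8 : a ^ 8 = a := by rw [← hK]; exact FiniteField.pow_card a
    have h7 : a * (a + 1) * ((a ^ 3 + a + 1) * (a ^ 3 + a ^ 2 + 1)) = 0 := by
      linear_combination h8 + (a^7 + a^6 + 2 * a^5 + 2 * a^4 + a ^ 3 + a ^ 2 + a) * h2
    rcases mul_eq_zero.1 h7 with h | h
    · rcases mul_eq_zero.1 h with h | h
      · exact absurd h ha.1
      · exfalso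
        apply ha.2
        linear_combination h - h2
    · rcases mul_eq_zero.1 h with h | h
      · exact ⟨a, h⟩
      · refine ⟨a⁻¹, ?_⟩
        have ha0 := ha.1
        field_simp
        linear_combination h
  obtain ⟨t, ht⟩ := hexists
  let M : Matrix (Fin 2) (Fin 2) K := !![0, 1; 1, t]
  have hdet : M.det = 1 := by
    rw [Matrix.det_fin_two_of]
    linear_combination -h2
  let x : Matrix.SpecialLinearGroup (Fin 2) K := ⟨M, hdet⟩
  have hM3 : M ^ 3 = !![t, t ^ 2 + 1; t ^ 2 + 1, t ^ 3 + 2 * t] := by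
    rw [pow_succ, pow_two]
    ext i j
    fin_cases i <;> fin_cases j <;> simp [M, Matrix.mul_apply, Fin.sum_univ_two] <;> ring
  have hM9 : M ^ 9 = 1 := by
    have h1 : (!![t, t ^ 2 + 1; t ^ 2 + 1, t ^ 3 + 2 * t] : Matrix (Fin 2) (Fin 2) K) =
        !![t, t ^ 2 + 1; t ^ 2 + 1, t + 1] := by
      ext i j
      fin_cases i <;> fin_cases j <;> simp
      linear_combination ht - h2
    have h3 : (!![t, t ^ 2 + 1; t ^ 2 + 1, t + 1] : Matrix (Fin 2) (Fin 2) K) * !![t, t ^ 2 + 1; t ^ 2 + 1, t + 1] =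
        !![t, t ^ 2 + 1; t ^ 2 + 1, t + 1] + 1 := by
      ext i j
      fin_cases i <;> fin_cases j <;> simp [Matrix.mul_apply, Fin.sum_univ_two]
      · linear_combination t * ht + (t ^ 2 - t) * h2
      · linear_combination (t ^ 3 + t) * h2
      · linear_combination (t ^ 3 + t) * h2
      · linear_combination t * ht + t ^ 2 * h2
    have h4 : ∀ A : Matrix (Fin 2) (Fin 2) K, A + A = 0 := by
      intro A
      rw [← two_smul K A, h2, zero_smul]
    rw [show 9 = 3 * 3 from rfl, pow_mul, hM3, h1, pow_succ, pow_two, h3, add_mul, one_mul, h3, add_assoc, add_comm 1,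
      ← add_assoc, h4, zero_add]
  refine ⟨x, ?_, ?_⟩
  · apply Subtype.ext
    rw [Matrix.SpecialLinearGroup.coe_pow]
    exact hM9
  · intro h
    have h1 := congrArg (fun z : Matrix.SpecialLinearGroup (Fin 2) K => (z : Matrix (Fin 2) (Fin 2) K) 0 0) h
    have h3 := congrArg (fun z : Matrix.SpecialLinearGroup (Fin 2) K => (z : Matrix (Fin 2) (Fin 2) K) 0 1) h
    simp only [Matrix.SpecialLinearGroup.coe_pow, Matrix.SpecialLinearGroup.coe_one] at h1 h3
    have h4 : (x : Matrix (Fin 2) (Fin 2) K) ^ 3 = M ^ 3 := rfl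
    rw [h4, hM3] at h1 h3
    simp at h1
    rw [h1] at ht
    apply one_ne_zero (α := K)
    linear_combination ht - h2

end sl

end Cfsg.Agent.H4.TwD4
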