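import Cfsg.Agent.H4.TwD4.Coord
import Cfsg.Agent.H4.TwD4.Nine
import Cfsg.Agent.H1.RowExc
import Cfsg.Agent.HexTwoGlob.InstTwo
import Cfsg.Agent.H4.LfTrans

/-!
# The row of `³D₄(2)`: `ℒ_f(G, T)` is empty (helper4)
-/

set_option autoImplicit false

namespace Cfsg.Agent.H4.TwD4

open Subgroup Cfsg Cfsg.Agent.H4.Small Cfsg.Agent.H4.Lf Cfsg.Agent.H4.LfTrans
open Cfsg.Agent.HexRec Cfsg.Agent.HexTwoGlob

universe u v w

/-- normal elementary abelian subgroups of a Sylow 2-subgroup have order at most 32 -/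
theorem card_le_sylow {X : Type v} [Group X] [Finite X] {F K : Type w} [Field F] [Field K] [Algebra F K] {C : Cubic F K}
    (hD : Dat2 C) {P : Sylow 2 X} (E : Coord C (P : Subgroup X)) {U : Subgroup X} (h1 : U ≤ (P : Subgroup X))
    (h2 : (P : Subgroup X) ≤ normalizer (U : Set X)) (h3 : ∀ a ∈ U, ∀ b ∈ U, a * b = b * a) (h4 : ∀ a ∈ U, a * a = 1) :
    Nat.card ↥U ≤ 32 := by
  have h5 := card_le_of_normal E hD (U.subgroupOf (P : Subgroup X)) (fun g u hu => by
      rw [mem_subgroupOf] at hu ⊢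
      exact (mem_normalizer_iff.1 (h2 g.2) u).1 hu)
    (fun u hu => Subtype.ext (h4 _ (mem_subgroupOf.1 hu)))
    (fun u hu v hv => Subtype.ext (h3 _ (mem_subgroupOf.1 hu) _ (mem_subgroupOf.1 hv)))
  rwa [Nat.card_congr (subgroupOfEquivOfLe h1).toEquiv] at h5

/-- **row `³D₄(2)`** -/
theorem noLf {G : Type u} [Group G] [Finite G] (hE : IsOfEvenCharacteristic G) {K : Type} [Field K] [Fintype K]
    (hK : Fintype.card K = 8) (e : G ≃* ↥(Lie.twistedD4 K 2)) : NoLf G := by
  have h2f : Fact (Nat.Prime 2) := ⟨Nat.prime_two⟩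
  have hchar : CharP K 2 := charP_of_card_eq_prime_pow (R := K) (f := 3) (by rw [hK]; norm_num)
  have hq : IsPrimePow 2 := Nat.prime_two.isPrimePow
  obtain ⟨F, _, _, _, hc, hrow⟩ := H1.RowExc.row_twD4 hq (by rw [hK]; norm_num) e
  obtain ⟨F₀, _, _, C, hD, hcoord⟩ := InstTwo.instTwo K hK
  refine NoLf.of_forall fun T L hL => ?_
  obtain ⟨-, i, ⟨f⟩⟩ := hrow T L hL.1
  rcases hc i with h | h
  · -- `SL₂(2)` is solvable
    apply not_solvable hL.1
    have h1 : Group.IsSolvable (Matrix.SpecialLinearGroup (Fin 2) (F i)) := H1.RowExc.solvable_sl (F i) (by omega)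
    have h2 : Group.IsSolvable (↥L ⧸ pCore 2 ↥L) := Group.isSolvable_of_surjective (f := f.symm.toMonoidHom) f.symm.surjective
    have h3 : Group.IsSolvable ↥(pCore 2 ↥L) := by
      have := (Cfsg.Agent.Lib.Cores.pCore_isPGroup (G := ↥L) 2).isNilpotent
      infer_instance
    exact Group.isSolvable_of_ker_le_range (pCore 2 ↥L).subtype (QuotientGroup.mk' (pCore 2 ↥L)) (by
      rw [QuotientGroup.ker_mk', Subgroup.range_subtype])
  · -- `SL₂(8)`
    have h8 : Fintype.card (F i) = 8 := by rw [h]; norm_num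
    have hs : IsSimpleGroup (Matrix.SpecialLinearGroup (Fin 2) (F i)) := H1.RowExc.simple_sl (F i) (by omega)
    obtain ⟨x, h9, h3⟩ := exists_nine h8
    obtain ⟨U, hU1, hU2, hU⟩ := exists_acts hE T hL
    refine false_of_nine hU ?_ f h9 h3
    obtain ⟨E⟩ := hcoord (mapSylow e T)
    have h4 : Nat.card ↥(U.map e.toMonoidHom) ≤ 32 := by
      refine card_le_sylow hD E ?_ ?_ ?_ ?_
      · rw [coe_mapSylow]; exact Subgroup.map_mono hU1
      · rw [coe_mapSylow]
        rintro _ ⟨t, ht, rfl⟩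
        rw [mem_normalizer_iff]
        intro y
        have h5 := mem_normalizer_iff.1 (hU2 ht)
        constructor
        · rintro ⟨a, ha, rfl⟩
          exact ⟨t * a * t⁻¹, (h5 a).1 ha, by simp⟩
        · rintro ⟨a, ha, hay⟩
          refine ⟨t⁻¹ * a * t, (h5 _).2 (by rwa [show t * (t⁻¹ * a * t) * t⁻¹ = a by group]), ?_⟩
          have h6 : e a = e t * y * (e t)⁻¹ := hay
          show e (t⁻¹ * a * t) = y
          rw [map_mul, map_mul, h6, map_inv]
          group
      · rintro _ ⟨a, ha, rfl⟩ _ ⟨b, hb, rfl⟩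
        rw [← map_mul, ← map_mul, hU.comm a ha b hb]
      · rintro _ ⟨a, ha, rfl⟩
        rw [← map_mul, hU.sq a ha, map_one]
    rwa [← Nat.card_congr (U.equivMapOfInjective e.toMonoidHom e.injective).toEquiv] at h4

end Cfsg.Agent.H4.TwD4
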